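import Cfsg.Agent.H920.Sz12.KFour
import Cfsg.Agent.H937.G24.Ctr

/-!
# K4, unconditional: `2.G₂(4)` is not a core of a maximal subgroup of `Sp₁₂(3)` (helper920, helper937)
-/

set_option autoImplicit false

namespace Cfsg.Agent.H920.Sz12

open Matrix Cfsg Cfsg.Geo
open Cfsg.Agent.H915.LD (Core Soc toSoc toSoc_surjective)

universe u

variable {F : Type u} [Field F] [Finite F]

/-- **K4.** The Schur double cover of `G₂(4)` is not the residual core of a maximal subgroup of `Sp₁₂(3)`. -/
theorem k4_final (hF : Nat.card F = 3) {H P : Subgroup (GL I12 F)} (hH : IsMaximalIn (spGL 6 F) H)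
    (hc : IsResidualCore H P) {K : Type} [Field K] [Fintype K] (hK : Fintype.card K = 4)
    (e : Soc P ≃* Cfsg.Lie.chevG2.group K) : False := by
  have h2 : (2 : F) ≠ 0 := by
    haveI := Fintype.ofFinite F
    haveI hchar : CharP F 3 := by
      obtain ⟨p, hp⟩ := CharP.exists F
      obtain ⟨n, hpp, hn⟩ := FiniteField.card F p
      rw [← Nat.card_eq_fintype_card, hF] at hn
      have h1 : p ∣ 3 := by rw [hn]; exact dvd_pow_self p n.pos.ne'
      rwa [(Nat.prime_dvd_prime_iff_eq hpp Nat.prime_three).1 h1] at hp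
    intro h
    have h1 : ((2 : ℕ) : F) = 0 := by exact_mod_cast h
    rw [CharP.cast_eq_zero_iff F 3] at h1
    omega
  have h12 : Fintype.card I12 = 12 := by
    simp [Fintype.card_sum]
  exact k4 hF hH hc hK e
    (fun R hR E _ _ hE e1 => H937.G24.card_scalars hE h2 hR e1 h12)
    (fun R R' hR hR' E _ _ hE e1 ψ x => H937.G24.core_trace hE h2 hR e1 h12 ψ x)

end Cfsg.Agent.H920.Sz12
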